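import Cfsg.Agent.H6.Fi24.C1.D16

set_option autoImplicit false
set_option maxRecDepth 100000
set_option Elab.async false

namespace Cfsg.H6.Fi24.C1

theorem b0 : allR (blk get gs (gwB gwh 303) gd 251433620313418347826368578021553735323475699495440094962014236368293180205864976640) 4 620 = true := by decide +kernel

theorem b1 : allR (blk get gs (gwB gwh 303) gd 251433620313418347826368578021553735323475699495440094962014236368293180205864976640) 624 628 = true := by decide +kernel

theorem b2 : allR (blk get gs (gwB gwh 303) gd 251433620313418347826368578021553735323475699495440094962014236368293180205864976640) 1252 636 = true := by decide +kernel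

theorem b3 : allR (blk get gs (gwB gwh 303) gd 251433620313418347826368578021553735323475699495440094962014236368293180205864976640) 1888 642 = true := by decide +kernel

end Cfsg.H6.Fi24.C1
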