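import Cfsg.Agent.H6.Fi24.C1.D16

set_option autoImplicit false
set_option maxRecDepth 100000
set_option Elab.async false

namespace Cfsg.H6.Fi24.C1

theorem b44 : allR (blk get gs (gwB gwh 303) gd 251433620313418347826368578021553735323475699495440094962014236368293180205864976640) 28275 648 = true := by decide +kernel

theorem b45 : allR (blk get gs (gwB gwh 303) gd 251433620313418347826368578021553735323475699495440094962014236368293180205864976640) 28923 619 = true := by decide +kernel

theorem b46 : allR (blk get gs (gwB gwh 303) gd 251433620313418347826368578021553735323475699495440094962014236368293180205864976640) 29542 617 = true := by decide +kernel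

theorem b47 : allR (blk get gs (gwB gwh 303) gd 251433620313418347826368578021553735323475699495440094962014236368293180205864976640) 30159 627 = true := by decide +kernel

end Cfsg.H6.Fi24.C1
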