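import Cfsg.Agent.H6.Fi24.C1.D16

set_option autoImplicit false
set_option maxRecDepth 100000
set_option Elab.async false

namespace Cfsg.H6.Fi24.C1

theorem c4 : allR (clo get gc 306936 4320512 4796) 6248 1562 = true := by decide +kernel

theorem c5 : allR (clo get gc 306936 4320512 4796) 7810 1562 = true := by decide +kernel

theorem c6 : allR (clo get gc 306936 4320512 4796) 9372 1562 = true := by decide +kernel

theorem c7 : allR (clo get gc 306936 4320512 4796) 10934 1562 = true := by decide +kernel

end Cfsg.H6.Fi24.C1
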