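import Cfsg.Agent.H6.Fi24.C1.D16

set_option autoImplicit false
set_option maxRecDepth 100000
set_option Elab.async false

namespace Cfsg.H6.Fi24.C1

theorem c12 : allR (clo get gc 306936 4320512 4796) 18744 1562 = true := by decide +kernel

theorem c13 : allR (clo get gc 306936 4320512 4796) 20306 1562 = true := by decide +kernel

theorem c14 : allR (clo get gc 306936 4320512 4796) 21868 1562 = true := by decide +kernel

theorem c15 : allR (clo get gc 306936 4320512 4796) 23430 1562 = true := by decide +kernel

end Cfsg.H6.Fi24.C1
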